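import Cfsg.Agent.H63.AnDefs2

/-!
# Project AN, piece KP: involutions of the symmetric group
-/

set_option autoImplicit false

namespace Cfsg.Agent.H53.AnK

open Cfsg.Agent.H63.AN Subgroup Equiv Equiv.Perm
open scoped commutatorElement

variable {α : Type} [Fintype α] [DecidableEq α] {p : Perm α}

omit [Fintype α] [DecidableEq α] in
theorem pp (h : p * p = 1) (x : α) : p (p x) = x := by
  rw [← Perm.mul_apply, h, Perm.one_apply]

omit [Fintype α] in
theorem comm_swap {a : Perm α} {u v : α} (h : (a u = u ∧ a v = v) ∨ (a u = v ∧ a v = u)) :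
    Commute (swap u v) a := by
  have : a * swap u v * a⁻¹ = swap u v := by
    rw [← swap_apply_apply]
    rcases h with ⟨h1, h2⟩ | ⟨h1, h2⟩
    · rw [h1, h2]
    · rw [h1, h2, swap_comm]
  exact (mul_inv_eq_iff_eq_mul.1 this).symm

theorem exists_odd (hc : 9 ≤ Fintype.card α) (h : p * p = 1) (S : Finset α) (h4 : S.card ≤ 4)
    (hS : ∀ u, p u ∈ S → u ∈ S) :
    ∃ u v, u ≠ v ∧ u ∉ S ∧ v ∉ S ∧ Commute (swap u v) p := by
  by_cases c : ∃ u, u ∉ S ∧ p u ≠ u
  · obtain ⟨u, u1, u2⟩ := c
    exact ⟨u, p u, u2.symm, u1, fun m => u1 (hS u m), comm_swap (Or.inr ⟨rfl, pp h u⟩)⟩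
  · push Not at c
    have : 1 < Sᶜ.card := by rw [Finset.card_compl]; omega
    obtain ⟨u, hu, v, hv, uv⟩ := Finset.one_lt_card.1 this
    rw [Finset.mem_compl] at hu hv
    exact ⟨u, v, uv, hu, hv, comm_swap (Or.inl ⟨c u hu, c v hv⟩)⟩

theorem conj (hc : 9 ≤ Fintype.card α) {q : Perm α} (hp : p * p = 1) (hq : q * q = 1)
    (e : p.support.card = q.support.card) : ∃ a : Perm α, sign a = 1 ∧ a * p * a⁻¹ = q := by
  have : Fact (Nat.Prime 2) := ⟨Nat.prime_two⟩
  have h1 := cycleType_of_pow_prime_eq_one (p := 2) (σ := p) (by rw [pow_two, hp])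
  have h2 := cycleType_of_pow_prime_eq_one (p := 2) (σ := q) (by rw [pow_two, hq])
  have s1 := sum_cycleType p
  have s2 := sum_cycleType q
  rw [h1, Multiset.sum_replicate, smul_eq_mul] at s1
  rw [h2, Multiset.sum_replicate, smul_eq_mul] at s2
  have h3 : p.cycleType.card = q.cycleType.card := by omega
  obtain ⟨c, hc'⟩ := isConj_iff.1 (isConj_iff_cycleType_eq.2 (by rw [h1, h2, h3]) : IsConj p q)
  rcases Int.units_eq_one_or (sign c) with s | s
  · exact ⟨c, s, hc'⟩
  obtain ⟨u, v, uv, -, -, k⟩ := exists_odd hc hp ∅ (by simp) (by simp)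
  refine ⟨c * swap u v, by rw [Perm.sign_mul, s, sign_swap uv]; rfl, ?_⟩
  rw [← hc', mul_inv_rev, mul_assoc c (swap u v) p, k.eq]
  group

theorem two (hc : 9 ≤ Fintype.card α) (h : p * p = 1) {x y : α} (hx : p x ≠ x) (hy : p y ≠ y) :
    swap y (p y) * swap x (p x) ∈ ⁅CA p, CA p⁆ := by
  by_cases c1 : y = x
  · rw [c1, swap_mul_self]; exact one_mem _
  by_cases c2 : y = p x
  · rw [c2, pp h, swap_comm, swap_mul_self]; exact one_mem _
  have c3 : p y ≠ x := fun e => c2 (by rw [← e, pp h])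
  have c4 : p y ≠ p x := fun e => c1 (p.injective e)
  obtain ⟨u, v, uv, u1, v1, k⟩ := exists_odd hc h {x, p x, y, p y} Finset.card_le_four (by
    intro u
    simp only [Finset.mem_insert, Finset.mem_singleton]
    rintro (e | e | e | e)
    · exact Or.inr (Or.inl (by rw [← e, pp h]))
    · exact Or.inl (p.injective e)
    · exact Or.inr (Or.inr (Or.inr (by rw [← e, pp h])))
    · exact Or.inr (Or.inr (Or.inl (p.injective e))))
  simp only [Finset.mem_insert, Finset.mem_singleton, not_or] at u1 v1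
  set s : Perm α := swap x y * swap (p x) (p y) with hs
  have sx : s x = y := by
    rw [hs, Perm.mul_apply, swap_apply_of_ne_of_ne hx.symm c3.symm, swap_apply_left]
  have spx : s (p x) = p y := by
    rw [hs, Perm.mul_apply, swap_apply_left, swap_apply_of_ne_of_ne c3 hy]
  have su : Commute (swap u v) s := comm_swap (Or.inl ⟨by
    rw [hs, Perm.mul_apply, swap_apply_of_ne_of_ne u1.2.1 u1.2.2.2,
      swap_apply_of_ne_of_ne u1.1 u1.2.2.1], by
    rw [hs, Perm.mul_apply, swap_apply_of_ne_of_ne v1.2.1 v1.2.2.2,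
      swap_apply_of_ne_of_ne v1.1 v1.2.2.1]⟩)
  have cm : Commute (swap (p x) (p y)) (swap x y) := comm_swap (Or.inl
    ⟨swap_apply_of_ne_of_ne hx (Ne.symm c2), swap_apply_of_ne_of_ne c3 hy⟩)
  have sp : Commute s p := by
    have : p * s * p⁻¹ = s := by
      rw [hs, show p * (swap x y * swap (p x) (p y)) * p⁻¹ =
        p * swap x y * p⁻¹ * (p * swap (p x) (p y) * p⁻¹) by group, ← swap_apply_apply,
        ← swap_apply_apply, pp h, pp h, cm.eq]
    exact (mul_inv_eq_iff_eq_mul.1 this).symm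
  have m1 : s ∈ CA p := mem_CA.2 ⟨sp, by
    rw [hs, Perm.sign_mul, sign_swap (Ne.symm c1), sign_swap (Ne.symm c4)]; rfl⟩
  have m2 : swap x (p x) * swap u v ∈ CA p := mem_CA.2
    ⟨(comm_swap (Or.inr ⟨rfl, pp h x⟩)).mul_left k, by
      rw [Perm.sign_mul, sign_swap hx.symm, sign_swap uv]; rfl⟩
  have := commutator_mem_commutator m1 m2
  rwa [commutatorElement_def, show s * (swap x (p x) * swap u v) * s⁻¹ =
    s * swap x (p x) * s⁻¹ * (s * swap u v * s⁻¹) by group, ← su.eq, mul_inv_cancel_right,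
    ← swap_apply_apply, sx, spx, mul_inv_rev, swap_inv, swap_inv, mul_assoc,
    ← mul_assoc (swap u v), swap_mul_self, one_mul] at this

theorem ind (hc : 9 ≤ Fintype.card α) (h : p * p = 1) (n : ℕ) : ∀ q : Perm α,
    q.support.card ≤ n → (∀ x, q x = x ∨ q x = p x) →
      q ∈ ⁅CA p, CA p⁆ ∨ ∃ x, p x ≠ x ∧ swap x (p x) * q ∈ ⁅CA p, CA p⁆ := by
  induction n with
  | zero =>
    intro q hq _
    rw [support_eq_empty_iff.1 (Finset.card_eq_zero.1 (Nat.le_zero.1 hq))]
    exact Or.inl (one_mem _)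
  | succ n ih =>
    intro q hq hb
    by_cases c : ∀ x, q x = x
    · rw [show q = 1 from Equiv.ext c]; exact Or.inl (one_mem _)
    push Not at c
    obtain ⟨x, hx⟩ := c
    have e1 : q x = p x := (hb x).resolve_left hx
    have px : p x ≠ x := e1 ▸ hx
    have e2 : q (p x) = x := by
      rcases hb (p x) with a | a
      · exact absurd (q.injective (a.trans e1.symm)) px
      · rw [a, pp h]
    have lt := card_support_swap_mul hx
    rw [e1] at lt
    rcases ih (swap x (p x) * q) (by omega) (fun z => by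
      by_cases z1 : z = x
      · left; rw [z1, Perm.mul_apply, e1, swap_apply_right]
      by_cases z2 : z = p x
      · left; rw [z2, Perm.mul_apply, e2, swap_apply_left]
      rw [Perm.mul_apply, swap_apply_of_ne_of_ne (fun a => z2 (q.injective (a.trans e2.symm)))
        (fun a => z1 (q.injective (a.trans e1.symm)))]
      exact hb z) with a | ⟨y, hy, a⟩
    · exact Or.inr ⟨x, px, a⟩
    · left
      have := mul_mem (two hc h hy px) a
      rwa [mul_assoc, ← mul_assoc (swap y (p y)) (swap y (p y)), swap_mul_self, one_mul,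
        ← mul_assoc, swap_mul_self, one_mul] at this

theorem kp : KpStmt := by
  intro α _ _ hc
  refine ⟨fun p q hp hq e => conj hc hp hq e, fun p hp _ q hq => ?_⟩
  rcases ind hc hp _ q le_rfl hq.2 with a | ⟨x, hx, a⟩
  · exact a
  · have := (mem_CA.1 (commutator_le_self _ a)).2
    rw [Perm.sign_mul, sign_swap hx.symm, hq.1] at this
    exact absurd this (by decide)

end Cfsg.Agent.H53.AnK
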