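import Cfsg.Agent.H35.RfQ
import Cfsg.Agent.H42.Code

/-! Project RF, piece TF: fixed point free elements of order three in the cocode case. -/

set_option autoImplicit false

namespace Cfsg.Agent.H53.RfTf

open Cfsg Subgroup Cfsg.Agent.H42 Cfsg.Agent.H18.Rf Cfsg.Agent.H35.RF
open Cfsg.Agent.H48 (IsWord)
open scoped commutatorElement Pointwise symmDiff

universe u

theorem trace_mem {G : Type u} [Group G] {V W R : Subgroup G} {z : G} (a : Va V z W R) {h : G}
    (hM : h ∈ MM V z) (h3 : h ^ 3 ∈ R) (hf : ∀ w ∈ W, ⁅h, w⁆ ∈ zpowers z → w ∈ zpowers z)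
    {w : G} (hw : w ∈ W) : w * (h * w * h⁻¹ * (h * (h * w * h⁻¹) * h⁻¹)) ∈ zpowers z := by
  have cm : ∀ x ∈ V, ∀ y ∈ V, x * y = y * x := fun x hx y hy =>
    ((a.cen.ge hx) y hy).symm
  have n : ∀ x ∈ W, h * x * h⁻¹ ∈ W := fun x hx => (mem_normalizer_iff.1 (a.nW hM) x).1 hx
  have w1 := n w hw
  have w2 := n _ w1
  have w3 := n _ w2
  refine hf _ (mul_mem hw (mul_mem w1 w2)) ?_
  have e : ⁅h, w * (h * w * h⁻¹ * (h * (h * w * h⁻¹) * h⁻¹))⁆ =
      (h * w * h⁻¹ * (h * (h * w * h⁻¹) * h⁻¹)) * (h * (h * (h * w * h⁻¹) * h⁻¹) * h⁻¹) *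
        (h * w * h⁻¹ * (h * (h * w * h⁻¹) * h⁻¹))⁻¹ * w⁻¹ := by
    simp only [commutatorElement_def]; group
  rw [e, cm _ (a.WV (mul_mem w1 w2)) _ (a.WV w3), mul_inv_cancel_right,
    show h * (h * (h * w * h⁻¹) * h⁻¹) * h⁻¹ * w⁻¹ = ⁅h ^ 3, w⁆ by
      simp only [commutatorElement_def, pow_succ, pow_zero, one_mul, mul_inv_rev, mul_assoc]]
  exact a.RW _ h3 _ hw

theorem meet {p q r : Finset GolayPt} (hp : p.card = 2) (hq : q.card = 2) (hr : r.card = 2)
    (h : IsWord (p ∆ (q ∆ r))) : (q ∩ r).Nonempty := by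
  have h1 := card_symmDiff_add q r
  have h2 := eq_of_symmDiff_mem h (by omega)
  rw [← h2] at h1
  exact Finset.card_pos.1 (by omega)

theorem t0_mem : t0 ∈ famDec 6 sext0 :=
  mem_famDec.2 ⟨5, by norm_num, congrArg toSet (by decide +kernel)⟩

theorem fix_tetrad {g : M24} (hg : g ∈ GS) {T p : Finset GolayPt} (hT : T ∈ famDec 6 sext0)
    (hp : p ⊆ T) (h2 : p.card = 2)
    (h : IsWord (p ∆ ((g • p) ∆ (g • g • p))) ∨ IsWord ((p ∆ ((g • p) ∆ (g • g • p))) ∆ t0)) :
    g • T = T := by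
  have c1 : (g • p).card = 2 := by rw [Finset.card_smul_finset, h2]
  have c2 : (g • g • p).card = 2 := by rw [Finset.card_smul_finset, c1]
  have k : (g • p ∩ g • g • p).Nonempty := by
    rcases h with h | h
    · exact meet h2 c1 c2 h
    · have h4 := sext0_mem.2.1 T hT
      have h5 := card_symmDiff_add p T
      rw [Finset.inter_eq_left.2 hp] at h5
      refine meet (p := p ∆ T) (by omega) c1 c2 ?_
      have := H48.IsWord.symmDiff h ((leader_four sext0_mem t0_mem).2 hT).2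
      rwa [symmDiff_assoc, symmDiff_symmDiff_cancel_left, symmDiff_right_comm] at this
  rw [← msmul_inter, Finset.smul_finset_nonempty] at k
  obtain ⟨x, hx⟩ := k
  have hT' : g • T ∈ famDec 6 sext0 := by
    rw [← MulAction.mem_stabilizer_iff.1 hg]
    exact Finset.smul_mem_smul_finset hT
  exact sextet_eq_of_mem sext0_mem hT' hT ((msmul_subset g).2 hp (Finset.mem_inter.1 hx).2)
    (hp (Finset.mem_inter.1 hx).1)

theorem tf (kit : KitTStmt.{u}) (va : VaTStmt.{u}) (tc : TcStmt.{u}) : TfStmt.{u} := by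
  intro G _ _ V ρ ψ ω hz h hM h3 hf
  obtain ⟨k1, k2, k3, -⟩ := kit G V ρ ψ hz.st hz.tod
  have a := va G V ρ ψ ω hz
  obtain ⟨hN, hg⟩ := mem_pre.1 (k1 ▸ hM)
  have act : ∀ c, Even c.card → h * ψ c * h⁻¹ = ψ (ρ ⟨h, hN⟩ • c) := hz.tod.act ⟨h, hN⟩
  set g := ρ ⟨h, hN⟩
  have ev : ∀ c : Finset GolayPt, Even c.card → Even (g • c).card := fun c hc => by
    rwa [Finset.card_smul_finset]
  have ed : ∀ c d : Finset GolayPt, Even c.card → Even d.card → Even (c ∆ d).card :=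
    fun c d hc hd => by
      have := card_symmDiff_add c d
      rw [Nat.even_iff] at hc hd ⊢
      omega
  have fx : ∀ T ∈ famDec 6 sext0, g • T = T := fun T hT => by
    obtain ⟨p, hp, h2⟩ := Finset.exists_subset_card_eq (s := T) (n := 2)
      (by rw [sext0_mem.2.1 T hT]; norm_num)
    have e0 : Even p.card := by rw [h2]; decide
    have e1 := ev _ e0
    have e2 := ev _ e1
    have z0 : ∀ t ∈ famDec 6 sext0, (p ∩ t).card % 2 = 0 := fun t ht => by
      by_cases e : T = t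
      · rw [← e, Finset.inter_eq_left.2 hp, h2]
      · rw [Finset.disjoint_iff_inter_eq_empty.1
          ((sextet_disjoint sext0_mem hT ht e).mono_left hp)]
        rfl
    have := trace_mem a hM h3 hf ((k2 p e0).2 fun t ht t' ht' => by rw [z0 t ht, z0 t' ht'])
    rw [act _ e0, act _ e1, ← hz.tod.add _ _ e1 e2, ← hz.tod.add _ _ e0 (ed _ _ e1 e2)] at this
    exact fix_tetrad hg hT hp h2 ((k3 _ (ed _ _ e0 (ed _ _ e1 e2))).1 this)
  refine (tc G V ρ ψ ω hz).cenM h hM fun v hv => ?_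
  obtain ⟨c, hc, rfl⟩ := hz.tod.sur v hv
  rw [commutatorElement_def, act c hc, inv_eq_of_mul_eq_one_right (a.el _ hv),
    ← hz.tod.add _ _ (ev c hc) hc]
  have z0 : ∀ t ∈ famDec 6 sext0, (((g • c) ∆ c) ∩ t).card % 2 = 0 := fun t ht => by
    have h1 := card_symmDiff_add (g • c ∩ t) (c ∩ t)
    have h2 : (g • c ∩ t).card = (c ∩ t).card := by
      conv_lhs => rw [← fx t ht]
      exact card_msmul_inter g c t
    have h4 : ((g • c) ∆ c) ∩ t = (g • c ∩ t) ∆ (c ∩ t) := inf_symmDiff_distrib_right _ _ _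
    rw [h4]
    omega
  exact (k2 _ (ed _ _ (ev c hc) hc)).2 fun t ht t' ht' => by rw [z0 t ht, z0 t' ht']

end Cfsg.Agent.H53.RfTf
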